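import Mathlib
import Cfsg.Agent.Lib.Helper69.BG40.Defs
import Cfsg.Agent.Lib.Helper32.Tight
import Cfsg.Agent.Lib.Helper61.BG40.PKea2
import Cfsg.Agent.S1453

/-!
Team project S1440 (helper69): package `PKG5b` (helper11).
In the non-abelian Sylow `p`-subgroup `S ≤ M`, the non-central element `x` of order `p` is not a
proper `p`-th power.
-/

set_option autoImplicit false

namespace Cfsg.Agent.Lib.Helper11.BG40

open Cfsg

universe u

theorem pkG5b : Cfsg.Agent.Lib.Helper69.BG40.PKG5b.{u} := by
  intro G _ _ hG h1412 M hM p _ x D hL S hSM hx hxc z hz hzo hzc hxz y hy hyx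
  classical
  have hpp : p.Prime := Fact.out
  by_contra hy1
  -- `x` is a power of `y ^ p`
  have hxy : x ∈ Subgroup.zpowers (y ^ p) := by
    have hcard : Nat.card ↥(Subgroup.zpowers x) = p := by rw [Nat.card_zpowers, hL.hxo]
    have h1 : (⟨x, Subgroup.mem_zpowers x⟩ : ↥(Subgroup.zpowers x)) ∈
        Subgroup.zpowers (⟨y ^ p, hyx⟩ : ↥(Subgroup.zpowers x)) :=
      mem_zpowers_of_prime_card hcard (by intro h; exact hy1 (congrArg Subtype.val h))
    obtain ⟨k, hk⟩ := Subgroup.mem_zpowers_iff.mp h1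
    refine Subgroup.mem_zpowers_iff.mpr ⟨k, ?_⟩
    have h2 := congrArg Subtype.val hk
    simpa using h2
  -- `p` is odd
  have hp2 : p ≠ 2 := by
    intro h2
    have h3 : p ∣ Nat.card G := by
      rw [← hL.hxo]
      exact orderOf_dvd_natCard x
    rw [h2] at h3
    exact (Nat.not_even_iff_odd.mpr hG.1) (even_iff_two_dvd.mpr h3)
  by_cases hr : Cfsg.PRankLE p 2 ↥(S : Subgroup G)
  · rcases h1412 p S hr with hab | ⟨P₁, P₂, hsup, hcomm, hP₁na, hP₁card, hP₁exp, hP₂cyc, hΩ⟩
    · apply hxc
      intro a ha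
      have h1 := isMulCommutative_iff.mp hab ⟨a, ha⟩ ⟨x, hx⟩
      exact congrArg Subtype.val h1
    have hP₁S : P₁ ≤ (S : Subgroup G) := hsup ▸ le_sup_left
    have hP₂S : P₂ ≤ (S : Subgroup G) := hsup ▸ le_sup_right
    -- `P₂` is commutative
    have hP₂comm : ∀ a ∈ P₂, ∀ b ∈ P₂, a * b = b * a := by
      intro a ha b hb
      haveI := hP₂cyc
      obtain ⟨g, hg⟩ := IsCyclic.exists_generator (α := ↥P₂)
      obtain ⟨i, hi⟩ := Subgroup.mem_zpowers_iff.mp (hg ⟨a, ha⟩)
      obtain ⟨j, hj⟩ := Subgroup.mem_zpowers_iff.mp (hg ⟨b, hb⟩)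
      have h1 : (⟨a, ha⟩ : ↥P₂) * ⟨b, hb⟩ = ⟨b, hb⟩ * ⟨a, ha⟩ := by
        rw [← hi, ← hj]
        exact (Commute.zpow_zpow (Commute.refl g) i j).eq
      exact congrArg Subtype.val h1
    -- elements of `P₂` are central in `S`
    have hP₂cen : ∀ b ∈ P₂, ∀ s ∈ (S : Subgroup G), b * s = s * b := by
      intro b hb s hs
      have h1 : P₁ ⊔ P₂ ≤ Subgroup.centralizer ({b} : Set G) := by
        apply sup_le
        · intro a ha
          rw [Subgroup.mem_centralizer_iff]
          intro h hh
          rw [Set.mem_singleton_iff.mp hh]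
          exact (hcomm a ha b hb).symm
        · intro a ha
          rw [Subgroup.mem_centralizer_iff]
          intro h hh
          rw [Set.mem_singleton_iff.mp hh]
          exact hP₂comm b hb a ha
      have h2 := h1 (hsup ▸ hs)
      exact Subgroup.mem_centralizer_iff.mp h2 b (Set.mem_singleton b)
    -- decomposition of elements of `S`
    have hP₂n : P₂ ≤ Subgroup.normalizer (P₁ : Set G) := by
      intro b hb
      rw [Subgroup.mem_normalizer_iff]
      intro a
      have e : ∀ a ∈ P₁, b * a * b⁻¹ = a := by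
        intro a ha
        rw [← hcomm a ha b hb, mul_inv_cancel_right]
      constructor
      · intro ha
        rw [e a ha]
        exact ha
      · intro ha
        have h1 := e _ ha
        have h2 : b * (b * a * b⁻¹) * b⁻¹ = b * a * b⁻¹ := h1
        have h3 : b * a * b⁻¹ = a := by
          have h4 : b * a * b⁻¹ = b⁻¹ * (b * (b * a * b⁻¹) * b⁻¹) * b := by group
          rw [h4, h2]
          group
        rw [← h3]
        exact ha
    obtain ⟨a, ha, b, hb, rfl⟩ : ∃ a ∈ P₁, ∃ b ∈ P₂, y = a * b :=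
      Cfsg.Agent.Lib.Helper32.exists_mul_of_mem_sup_of_le_normalizer hP₂n (hsup ▸ hy)
    have hap : a ^ p = 1 := by
      have h1 : (⟨a, ha⟩ : ↥P₁) ^ Monoid.exponent ↥P₁ = 1 := Monoid.pow_exponent_eq_one _
      rw [hP₁exp] at h1
      exact congrArg Subtype.val h1
    have hyp : (a * b) ^ p = b ^ p := by
      have hc : Commute a b := hcomm a ha b hb
      rw [hc.mul_pow, hap, one_mul]
    have hxP₂ : x ∈ P₂ := by
      have h1 : Subgroup.zpowers ((a * b) ^ p) ≤ P₂ := by
        rw [Subgroup.zpowers_le, hyp]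
        exact P₂.pow_mem hb p
      exact h1 hxy
    apply hxc
    intro s hs
    exact (hP₂cen x hxP₂ s hs).symm
  · -- rank at least three
    set x' : ↥(S : Subgroup G) := ⟨x, hx⟩ with hx'def
    set z' : ↥(S : Subgroup G) := ⟨z, hz⟩ with hz'def
    set y' : ↥(S : Subgroup G) := ⟨y, hy⟩ with hy'def
    have hx'o : orderOf x' = p := by
      rw [hx'def, Subgroup.orderOf_mk]
      exact hL.hxo
    have hz'o : orderOf z' = p := by
      rw [hz'def, Subgroup.orderOf_mk]
      exact hzo
    have hc : x' * z' = z' * x' := Subtype.ext (hzc x hx)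
    have hxz' : x' ∉ Subgroup.zpowers z' := by
      intro h
      obtain ⟨k, hk⟩ := Subgroup.mem_zpowers_iff.mp h
      apply hxz
      refine Subgroup.mem_zpowers_iff.mpr ⟨k, ?_⟩
      have h2 := congrArg Subtype.val hk
      simpa using h2
    obtain ⟨hEea, hEcard⟩ := Cfsg.Agent.Lib.Helper61.BG40.pkEa2 p x' z' hx'o hz'o hc hxz'
    set E' : Subgroup ↥(S : Subgroup G) := Subgroup.zpowers x' ⊔ Subgroup.zpowers z' with hE'def
    have hEmax : ∀ B : Subgroup ↥(S : Subgroup G), Cfsg.IsElementaryAbelian p B → E' ≤ B →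
        B = E' := by
      intro B hB hEB
      symm
      apply Subgroup.eq_of_le_of_card_ge hEB
      rw [hEcard]
      have hBc : ∀ a ∈ B, ∀ b ∈ B, a * b = b * a := by
        intro a ha b hb
        exact congrArg Subtype.val (isMulCommutative_iff.mp hB.1 ⟨a, ha⟩ ⟨b, hb⟩)
      have hx'B : x' ∈ B := hEB (Subgroup.mem_sup_left (Subgroup.mem_zpowers x'))
      have h1 : B.map (S : Subgroup G).subtype ≤ D := by
        rintro _ ⟨b, hb, rfl⟩
        apply hL.hCD
        refine Subgroup.mem_inf.mpr ⟨hSM b.2, ?_⟩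
        rw [Subgroup.mem_centralizer_iff]
        intro h hh
        rw [Set.mem_singleton_iff.mp hh]
        exact congrArg Subtype.val (hBc x' hx'B b hb)
      have h2 : Cfsg.IsElementaryAbelian p (B.map (S : Subgroup G).subtype) := by
        refine ⟨isMulCommutative_iff.mpr ?_, ?_⟩
        · rintro ⟨_, a, ha, rfl⟩ ⟨_, b, hb, rfl⟩
          apply Subtype.ext
          have h4 : ((a * b : ↥(S : Subgroup G)) : G) = ((b * a : ↥(S : Subgroup G)) : G) :=
            congrArg Subtype.val (hBc a ha b hb)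
          exact h4
        · rintro _ ⟨a, ha, rfl⟩
          have h3 := hB.2 a ha
          exact congrArg Subtype.val h3
      have h3 := hL.hrk p hpp _ h1 h2
      rwa [Subgroup.card_map_of_injective (Subgroup.subtype_injective _)] at h3
    obtain ⟨hnot, -, -, hTchar, hTidx⟩ :=
      Cfsg.Agent.S1453.result p hp2 S.isPGroup' hr E' hEea hEcard hEmax
    apply hnot
    set T : Subgroup ↥(S : Subgroup G) := Subgroup.centralizer
      ((Subgroup.closure {x : ↥(S : Subgroup G) |
        x ∈ Subgroup.upperCentralSeries ↥(S : Subgroup G) 2 ∧ x ^ p = 1} :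
          Subgroup ↥(S : Subgroup G)) : Set ↥(S : Subgroup G)) with hTdef
    haveI : T.Characteristic := hTchar
    haveI : T.Normal := Subgroup.normal_of_characteristic T
    have hyT : y' ^ p ∈ T := by
      have h1 := Subgroup.pow_index_mem T y'
      rwa [hTidx] at h1
    have hxT : x' ∈ T := by
      obtain ⟨k, hk⟩ := Subgroup.mem_zpowers_iff.mp hxy
      have h1 : x' = (y' ^ p) ^ k := by
        apply Subtype.ext
        simp [hx'def, hy'def, hk]
      rw [h1]
      exact T.zpow_mem hyT k
    have hzT : z' ∈ T := by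
      rw [hTdef, Subgroup.mem_centralizer_iff]
      intro h _
      exact Subtype.ext (hzc h.1 h.2)
    exact sup_le ((Subgroup.zpowers_le).mpr hxT) ((Subgroup.zpowers_le).mpr hzT)

end Cfsg.Agent.Lib.Helper11.BG40
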