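import Mathlib
import Cfsg.Agent.Lib.Helper69.BG40.Defs
import Cfsg.Agent.Lib.Helper32.Tight
import Cfsg.Agent.Lib.Helper42.EssP3
import Cfsg.Agent.Lib.Helper23.CentOmega

/-!
Team project S1440 (helper69): package `PKI2c1` (helper11).
Rank `≤ 2`, `K ≠ 1` acting in a prime manner on the non-abelian Sylow `p`-subgroup `S` with
`1 ≠ C_S(K) ≤ S'`: then `#S = p ^ 3` and `C_S(K) = Z(S)`.
-/

set_option autoImplicit false

namespace Cfsg.Agent.Lib.Helper11.BG40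

open Cfsg
open scoped commutatorElement

universe u

theorem pkI2c1 : Cfsg.Agent.Lib.Helper69.BG40.PKI2c1.{u} := by
  intro G _ _ hG h1412 p _ S hr hna K hKn hKcop hK1 hfix hKs hKs1
  classical
  have hpp : p.Prime := Fact.out
  rcases h1412 p S hr with hab | ⟨P₁, P₂, hsup, hcomm, hP₁na, hP₁card, hP₁exp, hP₂cyc, hΩ⟩
  · exact absurd hab hna
  have hP₁S : P₁ ≤ (S : Subgroup G) := hsup ▸ le_sup_left
  have hP₂S : P₂ ≤ (S : Subgroup G) := hsup ▸ le_sup_right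
  -- `p` is odd
  have hp2 : p ≠ 2 := by
    intro h2
    have h3 : p ∣ Nat.card G := by
      have h4 : p ∣ Nat.card ↥P₁ := by rw [hP₁card]; exact dvd_pow_self p (by norm_num)
      exact h4.trans (Subgroup.card_subgroup_dvd_card P₁)
    rw [h2] at h3
    exact (Nat.not_even_iff_odd.mpr hG.1) (even_iff_two_dvd.mpr h3)
  -- `P₂` is commutative
  have hP₂comm : ∀ a ∈ P₂, ∀ b ∈ P₂, a * b = b * a := by
    intro a ha b hb
    haveI := hP₂cyc
    obtain ⟨g, hg⟩ := IsCyclic.exists_generator (α := ↥P₂)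
    obtain ⟨i, hi⟩ := Subgroup.mem_zpowers_iff.mp (hg ⟨a, ha⟩)
    obtain ⟨j, hj⟩ := Subgroup.mem_zpowers_iff.mp (hg ⟨b, hb⟩)
    have h1 : (⟨a, ha⟩ : ↥P₂) * ⟨b, hb⟩ = ⟨b, hb⟩ * ⟨a, ha⟩ := by
      rw [← hi, ← hj]
      exact (Commute.zpow_zpow (Commute.refl g) i j).eq
    exact congrArg Subtype.val h1
  -- elements of `P₂` are central in `S`
  have hP₂cen : ∀ b ∈ P₂, ∀ s ∈ (S : Subgroup G), b * s = s * b := by
    intro b hb s hs
    have h1 : P₁ ⊔ P₂ ≤ Subgroup.centralizer ({b} : Set G) := by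
      apply sup_le
      · intro a ha
        rw [Subgroup.mem_centralizer_iff]
        intro h hh
        rw [Set.mem_singleton_iff.mp hh]
        exact (hcomm a ha b hb).symm
      · intro a ha
        rw [Subgroup.mem_centralizer_iff]
        intro h hh
        rw [Set.mem_singleton_iff.mp hh]
        exact hP₂comm b hb a ha
    have h2 := h1 (hsup ▸ hs)
    exact Subgroup.mem_centralizer_iff.mp h2 b (Set.mem_singleton b)
  -- decomposition of elements of `S`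
  have hP₂n : P₂ ≤ Subgroup.normalizer (P₁ : Set G) := by
    intro b hb
    rw [Subgroup.mem_normalizer_iff]
    intro a
    have e : ∀ a ∈ P₁, b * a * b⁻¹ = a := by
      intro a ha
      rw [← hcomm a ha b hb, mul_inv_cancel_right]
    constructor
    · intro ha
      rw [e a ha]
      exact ha
    · intro ha
      have h1 := e _ ha
      have h2 : b * (b * a * b⁻¹) * b⁻¹ = b * a * b⁻¹ := h1
      have h3 : b * a * b⁻¹ = a := by
        have h4 : b * a * b⁻¹ = b⁻¹ * (b * (b * a * b⁻¹) * b⁻¹) * b := by group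
        rw [h4, h2]
        group
      rw [← h3]
      exact ha
  have hdec : ∀ s ∈ (S : Subgroup G), ∃ a ∈ P₁, ∃ b ∈ P₂, s = a * b := by
    intro s hs
    exact Cfsg.Agent.Lib.Helper32.exists_mul_of_mem_sup_of_le_normalizer hP₂n (hsup ▸ hs)
  -- the centre of `P₁`
  set Z₁ : Subgroup G := P₁ ⊓ Subgroup.centralizer (P₁ : Set G) with hZ₁
  have hnc : ¬ ∀ a b : ↥P₁, a * b = b * a := by
    intro h
    exact hP₁na (isMulCommutative_iff.mpr h)
  have hZ₁map : Z₁ = (Subgroup.center ↥P₁).map P₁.subtype := by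
    ext x
    constructor
    · intro hx
      obtain ⟨hx1, hx2⟩ := Subgroup.mem_inf.mp hx
      refine ⟨⟨x, hx1⟩, Subgroup.mem_center_iff.mpr ?_, rfl⟩
      intro g
      exact Subtype.ext (Subgroup.mem_centralizer_iff.mp hx2 g g.2)
    · rintro ⟨y, hy, rfl⟩
      refine Subgroup.mem_inf.mpr ⟨y.2, ?_⟩
      rw [Subgroup.mem_centralizer_iff]
      intro g hg
      exact congrArg Subtype.val (Subgroup.mem_center_iff.mp hy ⟨g, hg⟩)
  have hZ₁card : Nat.card ↥Z₁ = p := by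
    rw [hZ₁map, Subgroup.card_map_of_injective (Subgroup.subtype_injective P₁)]
    exact Cfsg.Agent.Lib.Helper42.EssP3.card_center_of_p3 hP₁card hnc
  have hcommZ : ∀ a₁ ∈ P₁, ∀ a₂ ∈ P₁, ⁅a₁, a₂⁆ ∈ Z₁ := by
    intro a₁ h₁ a₂ h₂
    have h3 : ⁅(⟨a₁, h₁⟩ : ↥P₁), ⟨a₂, h₂⟩⁆ ∈ commutator ↥P₁ := by
      rw [commutator_def]
      exact Subgroup.commutator_mem_commutator (Subgroup.mem_top _) (Subgroup.mem_top _)
    rw [(Cfsg.Agent.Lib.Helper42.EssP3.p3_struct hP₁card hnc).1] at h3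
    rw [hZ₁map]
    exact ⟨_, h3, rfl⟩
  -- `S' ≤ Z(P₁)`
  have hS' : ⁅(S : Subgroup G), (S : Subgroup G)⁆ ≤ Z₁ := by
    rw [Subgroup.commutator_le]
    intro g₁ hg₁ g₂ hg₂
    obtain ⟨a₁, ha₁, b₁, hb₁, rfl⟩ := hdec g₁ hg₁
    obtain ⟨a₂, ha₂, b₂, hb₂, rfl⟩ := hdec g₂ hg₂
    have hc1 : b₁ * (a₂ * b₂) = (a₂ * b₂) * b₁ := hP₂cen b₁ hb₁ _ hg₂
    have hc2 : b₂ * a₁⁻¹ = a₁⁻¹ * b₂ :=
      hP₂cen b₂ hb₂ _ ((S : Subgroup G).inv_mem (hP₁S ha₁))
    have e : ⁅a₁ * b₁, a₂ * b₂⁆ = ⁅a₁, a₂⁆ := by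
      calc ⁅a₁ * b₁, a₂ * b₂⁆ = a₁ * (b₁ * (a₂ * b₂)) * b₁⁻¹ * a₁⁻¹ * b₂⁻¹ * a₂⁻¹ := by
            rw [commutatorElement_def]; group
        _ = a₁ * ((a₂ * b₂) * b₁) * b₁⁻¹ * a₁⁻¹ * b₂⁻¹ * a₂⁻¹ := by rw [hc1]
        _ = a₁ * a₂ * (b₂ * a₁⁻¹) * b₂⁻¹ * a₂⁻¹ := by group
        _ = a₁ * a₂ * (a₁⁻¹ * b₂) * b₂⁻¹ * a₂⁻¹ := by rw [hc2]
        _ = ⁅a₁, a₂⁆ := by rw [commutatorElement_def]; group
    rw [e]
    exact hcommZ a₁ ha₁ a₂ ha₂
  -- `K* = Z(P₁)`
  set Ks : Subgroup G := (S : Subgroup G) ⊓ Subgroup.centralizer (K : Set G) with hKsdef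
  have hKsZ : Ks ≤ Z₁ := hKs.trans hS'
  have hKsEq : Ks = Z₁ := by
    apply Subgroup.eq_of_le_of_card_ge hKsZ
    have h1 : Nat.card ↥Ks ∣ p := hZ₁card ▸ Subgroup.card_dvd_of_le hKsZ
    rcases (Nat.dvd_prime hpp).mp h1 with h2 | h2
    · exact absurd (Subgroup.card_eq_one.mp h2) hKs1
    · rw [hZ₁card, h2]
  have hZ₁P₂ : Z₁ ≤ P₂ := by
    rw [← hΩ, Subgroup.closure_le]
    intro x hx
    exact hx.1
  -- the centre of `S`
  set Zs : Subgroup G := (S : Subgroup G) ⊓ Subgroup.centralizer ((S : Subgroup G) : Set G)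
    with hZsdef
  have hZsP₂ : Zs ≤ P₂ := by
    intro s hs
    obtain ⟨hsS, hsC⟩ := Subgroup.mem_inf.mp hs
    obtain ⟨a, ha, b, hb, rfl⟩ := hdec s hsS
    have haZ : a ∈ Z₁ := by
      refine Subgroup.mem_inf.mpr ⟨ha, ?_⟩
      rw [Subgroup.mem_centralizer_iff]
      intro g hg
      have h1 : g * (a * b) = (a * b) * g := Subgroup.mem_centralizer_iff.mp hsC g (hP₁S hg)
      have h2 : b * g = g * b := hP₂cen b hb g (hP₁S hg)
      calc g * a = g * (a * b) * b⁻¹ := by group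
        _ = a * b * g * b⁻¹ := by rw [h1]
        _ = a * (b * g) * b⁻¹ := by group
        _ = a * (g * b) * b⁻¹ := by rw [h2]
        _ = a * g := by group
    exact P₂.mul_mem (hZ₁P₂ haZ) hb
  have hSp : IsPGroup p ↥(S : Subgroup G) := S.isPGroup'
  have hZsp : IsPGroup p ↥Zs := hSp.to_le inf_le_left
  have hKnZs : K ≤ Subgroup.normalizer (Zs : Set G) := by
    intro k hk
    have hkS := hKn hk
    have key : ∀ k' : G, k' ∈ Subgroup.normalizer ((S : Subgroup G) : Set G) →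
        ∀ z ∈ Zs, k' * z * k'⁻¹ ∈ Zs := by
      intro k' hk' z hz
      obtain ⟨hzS, hzC⟩ := Subgroup.mem_inf.mp hz
      refine Subgroup.mem_inf.mpr ⟨(Subgroup.mem_normalizer_iff.mp hk' z).mp hzS, ?_⟩
      rw [Subgroup.mem_centralizer_iff]
      intro s hs
      have hs' : k'⁻¹ * s * k' ∈ (S : Subgroup G) := by
        apply (Subgroup.mem_normalizer_iff.mp hk' _).mpr
        have e : k' * (k'⁻¹ * s * k') * k'⁻¹ = s := by group
        rw [e]
        exact hs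
      have h1 : (k'⁻¹ * s * k') * z = z * (k'⁻¹ * s * k') :=
        Subgroup.mem_centralizer_iff.mp hzC _ hs'
      calc s * (k' * z * k'⁻¹) = k' * ((k'⁻¹ * s * k') * z) * k'⁻¹ := by group
        _ = k' * (z * (k'⁻¹ * s * k')) * k'⁻¹ := by rw [h1]
        _ = k' * z * k'⁻¹ * s := by group
    rw [Subgroup.mem_normalizer_iff]
    intro z
    constructor
    · exact key k hkS z
    · intro hz
      have h1 := key k⁻¹ ((Subgroup.normalizer ((S : Subgroup G) : Set G)).inv_mem hkS) _ hz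
      have e : k⁻¹ * (k * z * k⁻¹) * k⁻¹⁻¹ = z := by group
      rwa [e] at h1
  have hZsK : Zs ≤ Ks := by
    intro z hz
    refine Subgroup.mem_inf.mpr ⟨(Subgroup.mem_inf.mp hz).1, ?_⟩
    rw [Subgroup.mem_centralizer_iff]
    intro k hk
    have hcop : (orderOf k).Coprime p := by
      have h1 : orderOf k ∣ Nat.card ↥K := by
        have h2 := orderOf_dvd_natCard (⟨k, hk⟩ : ↥K)
        rwa [Subgroup.orderOf_mk] at h2
      exact Nat.Coprime.coprime_dvd_left h1 hKcop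
    apply Cfsg.Agent.Lib.Helper23.conj_eq_of_fix_order_p hp2 Zs hZsp k (hKnZs hk) hcop _ z hz
    intro x hx hxo
    have hxP₂ : x ∈ P₂ := hZsP₂ hx
    have hxZ₁ : x ∈ Z₁ := by
      rw [← hΩ]
      apply Subgroup.subset_closure
      refine ⟨hxP₂, ?_⟩
      rw [← hxo]
      exact pow_orderOf_eq_one x
    rw [← hKsEq] at hxZ₁
    exact Subgroup.mem_centralizer_iff.mp (Subgroup.mem_inf.mp hxZ₁).2 k hk
  -- `P₂ ≤ P₁`, so `S = P₁`
  have hP₂Zs : P₂ ≤ Zs := by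
    intro b hb
    refine Subgroup.mem_inf.mpr ⟨hP₂S hb, ?_⟩
    rw [Subgroup.mem_centralizer_iff]
    intro s hs
    exact (hP₂cen b hb s hs).symm
  have hP₂P₁ : P₂ ≤ P₁ := fun b hb => (Subgroup.mem_inf.mp (hKsEq ▸ hZsK (hP₂Zs hb))).1
  have hSP₁ : (S : Subgroup G) = P₁ := by
    rw [← hsup]
    exact sup_eq_left.mpr hP₂P₁
  refine ⟨by rw [hSP₁]; exact hP₁card, ?_, ?_⟩
  · intro k hk hk1 a ha hka b hb
    have h1 : a ∈ (S : Subgroup G) ⊓ Subgroup.centralizer ({k} : Set G) := by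
      refine Subgroup.mem_inf.mpr ⟨ha, ?_⟩
      rw [Subgroup.mem_centralizer_iff]
      intro h hh
      rw [Set.mem_singleton_iff.mp hh]
      exact hka
    rw [hfix k hk hk1] at h1
    have h2 : a ∈ Z₁ := hKsEq ▸ h1
    have hb' : b ∈ P₁ := hSP₁ ▸ hb
    exact (Subgroup.mem_centralizer_iff.mp (Subgroup.mem_inf.mp h2).2 b hb').symm
  · intro k hk a ha hab
    have h1 : a ∈ Zs := by
      refine Subgroup.mem_inf.mpr ⟨ha, ?_⟩
      rw [Subgroup.mem_centralizer_iff]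
      intro s hs
      exact (hab s hs).symm
    exact Subgroup.mem_centralizer_iff.mp (Subgroup.mem_inf.mp (hZsK h1)).2 k hk

end Cfsg.Agent.Lib.Helper11.BG40
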